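import Mathlib
import Cfsg.Agent.Lib.Helper57.TSO.Defs
import Cfsg.Agent.Lib.Helper40.Tensor

/-!
# Project TSO (S5980), package [LOC]

`A` invertible, not scalar, `A ^ r` scalar, `r ≠ p`, `r ∤ q² - 1`: some `v` has `v, A v, A² v`
linearly independent.

Proof: take `v` with `v, A v` independent.  If `A² v = a₀ v + a₁ A v`, the `n × 2` matrix `Φ`
with columns `v, A v` satisfies `A Φ = Φ C` with `C = [[0, a₀], [1, a₁]]`, so `C ^ r = α`; `C` is
invertible and `r ∤ |GL₂(q)|`, so `C` is scalar - but its `(1, 0)` entry is `1`.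
-/

set_option autoImplicit false

namespace Cfsg.Agent.Lib.Helper34.TSO

open Cfsg.Agent.Lib.Helper57.TSO
open Matrix

universe u

/-- left cancellation of a matrix with independent columns. -/
theorem eq_zero_of_mul_eq_zero_of_inj {F : Type u} [Field F] {n m k : ℕ}
    (Φ : Matrix (Fin n) (Fin m) F) (hΦ : ∀ w : Fin m → F, Φ *ᵥ w = 0 → w = 0)
    (X : Matrix (Fin m) (Fin k) F) (hX : Φ * X = 0) : X = 0 := by
  ext l j
  have hcol : Φ *ᵥ (fun l => X l j) = 0 := by
    ext i
    have h := congrFun (congrFun hX i) j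
    rw [Matrix.mul_apply] at h
    exact h
  exact congrFun (hΦ _ hcol) l

/-- [LOC] -/
theorem pkgLoc : PkgLoc.{u} := by
  intro F _ _ p _ _ q hq n r _ hrp hrq A hdet α hAr hns
  classical
  have hrprime : r.Prime := Fact.out
  have hpprime : p.Prime := Fact.out
  obtain ⟨v, hv⟩ := Cfsg.Agent.Lib.Helper40.Tensor.exists_indep A hns
  have hv0 : v ≠ 0 := by
    intro h
    have h1 := hv 1 0 (by rw [h]; simp)
    exact one_ne_zero h1
  have hindep2 : ∀ s t : F, s • (A *ᵥ v) + t • v = 0 → s = 0 ∧ t = 0 := by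
    intro s t h
    have hs := hv s t h
    refine ⟨hs, ?_⟩
    rw [hs, zero_smul, zero_add] at h
    rcases smul_eq_zero.mp h with h | h
    · exact h
    · exact absurd h hv0
  refine ⟨v, ?_⟩
  intro c₀ c₁ c₂ h
  by_cases hc2 : c₂ = 0
  · rw [hc2, zero_smul, add_zero] at h
    have h1 := hindep2 c₁ c₀ (by rw [add_comm]; exact h)
    exact ⟨h1.2, h1.1, hc2⟩
  · exfalso
    have hA2 : ∀ i, (A *ᵥ (A *ᵥ v)) i = (-c₀ / c₂) * v i + (-c₁ / c₂) * (A *ᵥ v) i := by
      intro i
      have hi := congrFun h i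
      simp only [Pi.add_apply, Pi.smul_apply, smul_eq_mul, Pi.zero_apply] at hi
      field_simp
      linear_combination hi
    have hΦC : A * (Matrix.of (fun i (j : Fin 2) => if j = 0 then v i else (A *ᵥ v) i)) =
        (Matrix.of (fun i (j : Fin 2) => if j = 0 then v i else (A *ᵥ v) i)) *
          !![0, -c₀ / c₂; 1, -c₁ / c₂] := by
      ext i j
      rw [Matrix.mul_apply, Matrix.mul_apply, Fin.sum_univ_two]
      fin_cases j
      · simp [Matrix.mulVec, dotProduct]
      · have h1 := hA2 i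
        simp only [Matrix.mulVec, dotProduct] at h1
        simp [Matrix.mulVec, dotProduct]
        rw [h1]
        ring
    have hpow : ∀ k : ℕ, A ^ k * (Matrix.of (fun i (j : Fin 2) => if j = 0 then v i else (A *ᵥ v) i)) =
        (Matrix.of (fun i (j : Fin 2) => if j = 0 then v i else (A *ᵥ v) i)) *
          !![0, -c₀ / c₂; 1, -c₁ / c₂] ^ k := by
      intro k
      induction k with
      | zero => simp
      | succ k ih =>
        rw [pow_succ, Matrix.mul_assoc, hΦC, ← Matrix.mul_assoc, ih, Matrix.mul_assoc, ← pow_succ]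
    have hΦinj : ∀ w : Fin 2 → F,
        (Matrix.of (fun i (j : Fin 2) => if j = 0 then v i else (A *ᵥ v) i)) *ᵥ w = 0 → w = 0 := by
      intro w hw
      have h1 : w 1 • (A *ᵥ v) + w 0 • v = 0 := by
        ext i
        have h2 := congrFun hw i
        simp only [Matrix.mulVec, dotProduct, Fin.sum_univ_two, Matrix.of_apply, Pi.zero_apply] at h2
        simp only [Pi.add_apply, Pi.smul_apply, smul_eq_mul, Pi.zero_apply]
        simp at h2
        simp only [Matrix.mulVec, dotProduct]
        linear_combination h2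
      obtain ⟨h1', h0'⟩ := hindep2 _ _ h1
      ext j
      fin_cases j
      · exact h0'
      · exact h1'
    have hCr : !![0, -c₀ / c₂; 1, -c₁ / c₂] ^ r = α • (1 : Matrix (Fin 2) (Fin 2) F) := by
      have h1 := hpow r
      rw [hAr, Matrix.smul_mul, Matrix.one_mul] at h1
      have h2 : (Matrix.of (fun i (j : Fin 2) => if j = 0 then v i else (A *ᵥ v) i)) *
          (!![0, -c₀ / c₂; 1, -c₁ / c₂] ^ r - α • (1 : Matrix (Fin 2) (Fin 2) F)) = 0 := by
        rw [Matrix.mul_sub, Matrix.mul_smul, Matrix.mul_one, ← h1, sub_self]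
      exact sub_eq_zero.mp (eq_zero_of_mul_eq_zero_of_inj _ hΦinj _ h2)
    have ha0 : -c₀ / c₂ ≠ 0 := by
      intro h0
      have h1 : A *ᵥ (A *ᵥ v - (-c₁ / c₂) • v) = 0 := by
        rw [Matrix.mulVec_sub, Matrix.mulVec_smul]
        ext i
        rw [Pi.sub_apply, Pi.smul_apply, hA2 i, h0]
        simp
      have h2 := Matrix.eq_zero_of_mulVec_eq_zero hdet h1
      have h3 := hv 1 (-(-c₁ / c₂)) (by rw [one_smul, neg_smul, ← sub_eq_add_neg]; exact h2)
      exact one_ne_zero h3
    have hdetC : (!![0, -c₀ / c₂; 1, -c₁ / c₂] : Matrix (Fin 2) (Fin 2) F).det ≠ 0 := by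
      rw [Matrix.det_fin_two_of]
      simpa using ha0
    have hcard : ¬ r ∣ Nat.card (GL (Fin 2) F) := by
      rw [Matrix.card_GL_field, Fin.prod_univ_two, hq]
      simp only [Fin.val_zero, Fin.val_one, pow_zero, pow_one]
      intro hdvd
      rcases (Nat.Prime.dvd_mul hrprime).mp hdvd with h | h
      · exact hrq h
      · have hqq : q ^ 2 - q = q * (q - 1) := by rw [Nat.mul_sub, mul_one, sq]
        rw [hqq] at h
        rcases (Nat.Prime.dvd_mul hrprime).mp h with h | h
        · obtain ⟨e, -, he⟩ := FiniteField.card F p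
          rw [← hq, he] at h
          exact hrp ((Nat.prime_dvd_prime_iff_eq hrprime hpprime).mp (hrprime.dvd_of_dvd_pow h))
        · apply hrq
          have h3 := Nat.sub_dvd_pow_sub_pow q 1 2
          rw [one_pow] at h3
          exact dvd_trans h h3
    obtain ⟨β, hβ⟩ := Cfsg.Agent.Lib.Helper40.Tensor.scalar_of_coprime
      (Matrix.GeneralLinearGroup.mkOfDetNeZero _ hdetC) r hcard α hCr
    have h5 := congrFun (congrFun hβ 1) 0
    simp [Matrix.GeneralLinearGroup.mkOfDetNeZero] at h5

end Cfsg.Agent.Lib.Helper34.TSO
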