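import Mathlib
import Cfsg.Agent.Lib.Helper57.TSO.Defs

/-!
# Project TSO (S5980), package [ORD]

A matrix `B ≠ 1` over a finite field of order `q` and characteristic `p` with `B ^ r = 1`,
`r ≠ p` prime, has `orderOf (q : ZMod r) ≤ rank (B - 1)`.

Proof: the group generated by `B` is an `r`-group acting on `F ^ n`, with fixed points
`ker (B - 1)`; so `q ^ n ≡ q ^ (n - k) [MOD r]` with `k = rank (B - 1)`, hence
`q ^ k ≡ 1 [MOD r]`, and `k ≥ 1`.
-/

set_option autoImplicit false

namespace Cfsg.Agent.Lib.Helper34.TSO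

open Cfsg.Agent.Lib.Helper57.TSO
open Matrix

universe u

/-- fixed-point count: if `f ^ r = 1` for an endomorphism `f` of a finite vector space over a
field with `q` elements, then `q ^ dim V ≡ q ^ dim ker (f - 1) [MOD r]`. -/
theorem card_modEq_ker {F : Type u} [Field F] [Fintype F] {V : Type*} [AddCommGroup V]
    [Module F V] [Finite V] (r : ℕ) [Fact r.Prime] (f : Module.End F V) (hf : f ^ r = 1) :
    Nat.card V ≡ Nat.card (LinearMap.ker (f - 1)) [MOD r] := by
  classical
  have hr0 : r ≠ 0 := (Fact.out : r.Prime).ne_zero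
  have hu : Units.ofPowEqOne f r hf hr0 ^ r = 1 := Units.pow_ofPowEqOne hf hr0
  have hG : IsPGroup r (Subgroup.zpowers (Units.ofPowEqOne f r hf hr0)) := by
    rintro ⟨x, hx⟩
    refine ⟨1, ?_⟩
    obtain ⟨z, rfl⟩ := Subgroup.mem_zpowers_iff.mp hx
    apply Subtype.ext
    rw [pow_one]
    change (Units.ofPowEqOne f r hf hr0 ^ z) ^ r = 1
    rw [← zpow_natCast, ← _root_.zpow_mul, mul_comm, _root_.zpow_mul, zpow_natCast, hu, _root_.one_zpow]
  have hmod := hG.card_modEq_card_fixedPoints V
  have hfix : (MulAction.fixedPoints (Subgroup.zpowers (Units.ofPowEqOne f r hf hr0)) V) =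
      (LinearMap.ker (f - 1) : Set V) := by
    ext v
    rw [MulAction.mem_fixedPoints, SetLike.mem_coe, LinearMap.mem_ker, LinearMap.sub_apply,
      Module.End.one_apply, sub_eq_zero]
    constructor
    · intro h
      exact h ⟨Units.ofPowEqOne f r hf hr0, Subgroup.mem_zpowers _⟩
    · intro h x
      have hle : Subgroup.zpowers (Units.ofPowEqOne f r hf hr0) ≤
          MulAction.stabilizer (Module.End F V)ˣ v := by
        rw [Subgroup.zpowers_le]
        exact h
      exact hle x.2
  have hcard : Nat.card (MulAction.fixedPoints (Subgroup.zpowers (Units.ofPowEqOne f r hf hr0)) V)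
      = Nat.card (LinearMap.ker (f - 1)) := by
    rw [hfix]
    rfl
  rw [hcard] at hmod
  exact hmod

/-- [ORD] -/
theorem pkgOrd : PkgOrd.{u} := by
  intro F _ _ p _ _ q hq n r _ hrp B hBr hB1
  classical
  have hrprime : r.Prime := Fact.out
  have hpprime : p.Prime := Fact.out
  -- the endomorphism
  have hfr : (Matrix.toLinAlgEquiv' B : Module.End F (Fin n → F)) ^ r = 1 := by
    rw [← map_pow, hBr, map_one]
  have hmod := card_modEq_ker r (Matrix.toLinAlgEquiv' B : Module.End F (Fin n → F)) hfr
  have hsub : (Matrix.toLinAlgEquiv' B : Module.End F (Fin n → F)) - 1 = (B - 1).mulVecLin := by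
    apply LinearMap.ext
    intro v
    simp
  rw [hsub] at hmod
  -- cardinalities
  have hqF : Nat.card F = q := by rw [Nat.card_eq_fintype_card, hq]
  have hV : Nat.card (Fin n → F) = q ^ n := by
    rw [Nat.card_eq_fintype_card, Fintype.card_fun, Fintype.card_fin, hq]
  have hK : Nat.card (LinearMap.ker (B - 1).mulVecLin) =
      q ^ Module.finrank F (LinearMap.ker (B - 1).mulVecLin) := by
    rw [Module.natCard_eq_pow_finrank (K := F), hqF]
  have hrn := LinearMap.finrank_range_add_finrank_ker (B - 1).mulVecLin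
  have hk : (B - 1).rank = Module.finrank F (LinearMap.range (B - 1).mulVecLin) := rfl
  rw [Module.finrank_pi, Fintype.card_fin] at hrn
  -- `q` is a power of `p`, coprime to `r`
  obtain ⟨e, -, he⟩ := FiniteField.card F p
  have hqp : q = p ^ (e : ℕ) := by rw [← hq, he]
  have hcop : Nat.Coprime r q := by
    rw [hqp]
    exact Nat.Coprime.pow_right _ ((Nat.coprime_primes hrprime hpprime).mpr hrp)
  -- cancel
  rw [hV, hK] at hmod
  have hmod2 : q ^ Module.finrank F (LinearMap.ker (B - 1).mulVecLin) * q ^ (B - 1).rank ≡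
      q ^ Module.finrank F (LinearMap.ker (B - 1).mulVecLin) * 1 [MOD r] := by
    rw [mul_one, ← pow_add, hk, add_comm, hrn]
    exact hmod
  have hmod3 : q ^ (B - 1).rank ≡ 1 [MOD r] :=
    Nat.ModEq.cancel_left_of_coprime
      (Nat.Coprime.pow_right _ hcop) hmod2
  have hpow : ((q : ZMod r)) ^ (B - 1).rank = 1 := by
    have h := (ZMod.natCast_eq_natCast_iff _ _ _).mpr hmod3
    simpa using h
  have hdvd : orderOf (q : ZMod r) ∣ (B - 1).rank := orderOf_dvd_of_pow_eq_one hpow
  -- the rank is positive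
  have hpos : 0 < (B - 1).rank := by
    rw [Nat.pos_iff_ne_zero]
    intro h0
    rw [hk] at h0
    have hbot : LinearMap.range (B - 1).mulVecLin = ⊥ := Submodule.finrank_eq_zero.mp h0
    have hz : (B - 1).mulVecLin = 0 := LinearMap.range_eq_bot.mp hbot
    apply hB1
    have h1 : B - 1 = 0 := by
      have h2 : Matrix.toLin' (B - 1) = 0 := by rw [Matrix.toLin'_apply', hz]
      exact (LinearEquiv.map_eq_zero_iff _).mp h2
    exact sub_eq_zero.mp h1
  exact Nat.le_of_dvd hpos hdvd

end Cfsg.Agent.Lib.Helper34.TSO
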